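import Cfsg.Agent.Lib.KnownSimple.MultM.M11H.Cert0
import Cfsg.Agent.Lib.KnownSimple.MultM.M11H.Cert1
import Cfsg.Agent.Lib.KnownSimple.MultM.M11H.Cert2
import Cfsg.Agent.Lib.KnownSimple.MultM.M11H.Cert3

/-!
# A bound for the order of the presented group
-/

set_option autoImplicit false

namespace Cfsg.Agent.Lib.KnownSimple.MultM.M11H

open Cfsg Cfsg.Spor Cfsg.Agent.Lib.Compute Cfsg.Agent.Lib.KnownSimple.PE Cfsg.Agent.Lib.KnownSimple.Leech
open Cfsg.Agent.Lib.KnownSimple Cfsg.Agent.Lib.KnownSimple.AutRigid Cfsg.Agent.Lib.KnownSimple.Pres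

theorem bd0 : Finite (Subgroup.closure (v '' {g | g < 2})) ∧
    Nat.card (Subgroup.closure (v '' {g | g < 2})) ≤ 4 := by
  have h := S.step C0 (⊥ : Subgroup P) (K := K0) (n := 4) (ng := 2) (by decide +kernel) (fun _ => rfl) words0
    (fun a ha => Bool.noConfusion ha) (by decide +kernel) facts0 (by norm_num) (by decide +kernel) entries0
  rw [Subgroup.card_bot, mul_one] at h
  exact h
theorem bd1 : Finite (Subgroup.closure (v '' {g | g < 3})) ∧
    Nat.card (Subgroup.closure (v '' {g | g < 3})) ≤ 60 := by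
  haveI := bd0.1
  have h := S.step C1 (Subgroup.closure (v '' {g | g < 2})) (K := K1) (n := 15) (ng := 3) (by decide +kernel) (fun _ => rfl) words1
    (fun a ha => Subgroup.subset_closure ⟨a, by simpa [C1, Nat.blt_eq] using ha, rfl⟩) (by decide +kernel) facts1 (by norm_num) (by decide +kernel) entries1
  exact ⟨h.1, (h.2.trans (Nat.mul_le_mul_left _ bd0.2)).trans (by norm_num)⟩
theorem bd2 : Finite (Subgroup.closure (v '' {g | g < 4})) ∧
    Nat.card (Subgroup.closure (v '' {g | g < 4})) ≤ 360 := by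
  haveI := bd1.1
  have h := S.step C2 (Subgroup.closure (v '' {g | g < 3})) (K := K2) (n := 6) (ng := 4) (by decide +kernel) (fun _ => rfl) words2
    (fun a ha => Subgroup.subset_closure ⟨a, by simpa [C2, Nat.blt_eq] using ha, rfl⟩) (by decide +kernel) facts2 (by norm_num) (by decide +kernel) entries2
  exact ⟨h.1, (h.2.trans (Nat.mul_le_mul_left _ bd1.2)).trans (by norm_num)⟩
theorem bd3 : Finite (Subgroup.closure (v '' {g | g < 5})) ∧
    Nat.card (Subgroup.closure (v '' {g | g < 5})) ≤ 7920 := by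
  haveI := bd2.1
  have h := S.step C3 (Subgroup.closure (v '' {g | g < 4})) (K := K3) (n := 22) (ng := 5) (by decide +kernel) (fun _ => rfl) words3
    (fun a ha => Subgroup.subset_closure ⟨a, by simpa [C3, Nat.blt_eq] using ha, rfl⟩) (by decide +kernel) facts3 (by norm_num) (by decide +kernel) entries3
  exact ⟨h.1, (h.2.trans (Nat.mul_le_mul_left _ bd2.2)).trans (by norm_num)⟩

theorem finite_P : Finite P ∧ Nat.card P ≤ 7920 :=
  finite_of_top S.closure_top bd3

instance instP : Finite P := finite_P.1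

end Cfsg.Agent.Lib.KnownSimple.MultM.M11H
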