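import Mathlib

/-!
# Data of a coset enumeration
-/

set_option autoImplicit false

namespace Cfsg.Agent.Lib.KnownSimple.MultM.M11H

/-- Generated data. -/
def par0 : ℕ := 0x8
/-- Generated data. -/
def gix0 : ℕ := 0xc
/-- Generated data. -/
def dp0 : ℕ := 0x94
/-- Generated data. -/
def fa0 : ℕ := 0xe9d0
/-- Generated data. -/
def fl0 : ℕ := 0xc6
/-- Generated data. -/
def fb0 : ℕ := 0x4cb9
/-- Generated data. -/
def fk0 : ℕ := 0x6d2800
/-- Generated data. -/
def po0 : ℕ := 0xd63000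
/-- Generated data. -/
def pc0 : ℕ := 0x55c0
/-- Generated data. -/
def pa0 : ℕ := 0x116103
/-- Generated data. -/
def can0 : ℕ := 0xe4
/-- Generated data. -/
def tb0_0 : ℕ := 0xb1
/-- Generated data. -/
def fi0_0 : ℕ := 0x760
/-- Generated data. -/
def tb0_1 : ℕ := 0x4e
/-- Generated data. -/
def fi0_1 : ℕ := 0xf91

end Cfsg.Agent.Lib.KnownSimple.MultM.M11H
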