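import Mathlib

/-!
# Data of a coset enumeration
-/

set_option autoImplicit false

namespace Cfsg.Agent.Lib.KnownSimple.MultM.M11H

/-- Generated data. -/
def par1 : ℕ := 0xba9766554321100
/-- Generated data. -/
def gix1 : ℕ := 0x29512948
/-- Generated data. -/
def dp1 : ℕ := 0x1b6b6c91b488
/-- Generated data. -/
def fa1 : ℕ := 0xedcbaa988776543321eebddacc9b76968554342121000
/-- Generated data. -/
def fl1 : ℕ := 0x295048a50924a11624a1624
/-- Generated data. -/
def fb1 : ℕ := 0xba976c65b954321410eeedddcac8ba798876534322100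
/-- Generated data. -/
def fk1 : ℕ := 0x443332232424433224860860a50500709000050070011
/-- Generated data. -/
def po1 : ℕ := 0x57ad56a53a54684f9d3664b95264478cf5c385ea951c3264b162c4488810204080a142800000000
/-- Generated data. -/
def pc1 : ℕ := 0x111111111111111111950950e30300509000030050000
/-- Generated data. -/
def pa1 : ℕ := 0xc2a9207a669689c51240c28e184c20725a64761c708d98b1a9e48c24d4dfaea9a99eb91a48f28404314b3937e691a7e05176923d155640a10314b4573062c6101147
/-- Generated data. -/
def can1 : ℕ := 0xedcba9876543210
/-- Generated data. -/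
def tb1_0 : ℕ := 0xeda8c6b59734120
/-- Generated data. -/
def fi1_0 : ℕ := 0x195934679a488d28775c0c0
/-- Generated data. -/
def tb1_1 : ℕ := 0xed976c5ba821430
/-- Generated data. -/
def fi1_1 : ℕ := 0x1a5eaa684a540f2df786141
/-- Generated data. -/
def tb1_2 : ℕ := 0xbaced7894365201
/-- Generated data. -/
def fi1_2 : ℕ := 0x2cad461538c8e18092046c2

end Cfsg.Agent.Lib.KnownSimple.MultM.M11H
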