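import Mathlib

/-!
# Data of a coset enumeration
-/

set_option autoImplicit false

namespace Cfsg.Agent.Lib.KnownSimple.MultM.M11H

/-- Generated data. -/
def par2 : ℕ := 0xa50
/-- Generated data. -/
def gix2 : ℕ := 0x94c
/-- Generated data. -/
def dp2 : ℕ := 0xfa4
/-- Generated data. -/
def fa2 : ℕ := 0xb236d1b6a913289000
/-- Generated data. -/
def fl2 : ℕ := 0xb643d28772e4
/-- Generated data. -/
def fb2 : ℕ := 0x55430896d6e3691200
/-- Generated data. -/
def fk2 : ℕ := 0x45343225c970d60a080b0111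
/-- Generated data. -/
def po2 : ℕ := 0xefae78df6d74b2379e55248d348200000000
/-- Generated data. -/
def pc2 : ℕ := 0x111111118950930505080000
/-- Generated data. -/
def pa2 : ℕ := 0xc7a5675146c333ac4ef4c4eee4bed2ce1495e64a30ca309df253dc619dea304eb3142519427
/-- Generated data. -/
def can2 : ℕ := 0x2c688
/-- Generated data. -/
def tb2_0 : ℕ := 0x2b850
/-- Generated data. -/
def fi2_0 : ℕ := 0x1aa944a0
/-- Generated data. -/
def tb2_1 : ℕ := 0x2a318
/-- Generated data. -/
def fi2_1 : ℕ := 0x1d59a4e1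
/-- Generated data. -/
def tb2_2 : ℕ := 0x13948
/-- Generated data. -/
def fi2_2 : ℕ := 0x2eba3082
/-- Generated data. -/
def tb2_3 : ℕ := 0x25681
/-- Generated data. -/
def fi2_3 : ℕ := 0x1f641a03

end Cfsg.Agent.Lib.KnownSimple.MultM.M11H
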