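import Cfsg.Agent.Lib.KnownSimple.MultM.M11H.Pres
import Cfsg.Agent.Lib.KnownSimple.MultM.M11H.Data3_0

/-!
# A coset enumeration
-/

set_option autoImplicit false

namespace Cfsg.Agent.Lib.KnownSimple.MultM.M11H

open Cfsg Cfsg.Spor Cfsg.Agent.Lib.Compute Cfsg.Agent.Lib.KnownSimple.PE Cfsg.Agent.Lib.KnownSimple.Leech
open Cfsg.Agent.Lib.KnownSimple Cfsg.Agent.Lib.KnownSimple.AutRigid Cfsg.Agent.Lib.KnownSimple.Pres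

/-- A coset enumeration. -/
noncomputable def C3 : Cert where
  eL := 99
  ig := fun a => a
  words := [[0, 0], [1, 1], [2, 2], [3, 3], [4, 4], [0, 1, 0, 1], [1, 0, 1, 0], [0, 2, 0, 2, 0, 2], [2, 0, 2, 0, 2, 0], [0, 3, 0, 3, 0, 3], [3, 0, 3, 0, 3, 0], [1, 2, 1, 2, 1, 2, 1, 2, 1, 2], [1, 3, 1, 3, 1, 3], [3, 1, 3, 1, 3, 1], [1, 4, 1, 4, 1, 4, 1, 4], [4, 1, 4, 1, 4, 1, 4, 1], [2, 3, 2, 3, 2, 3, 2, 3], [3, 2, 3, 2, 3, 2, 3, 2], [2, 4, 2, 4, 2, 4, 2, 4, 2, 4, 2, 4], [3, 4, 3, 4], [0, 1, 2, 0, 1, 2, 0, 1, 2, 1, 0, 2, 1, 0, 2], [1, 2, 0, 1, 2, 0, 1, 2, 1, 0, 2, 1, 0, 2, 0], [2, 1, 2, 0, 2, 3, 2, 3, 0], [1, 2, 0, 2, 3, 2, 3, 0, 2], [2, 3, 0, 2, 1, 2, 0, 2, 3], [3, 0, 2, 1, 2, 0, 2, 3, 2], [0, 1, 2, 1, 3, 0, 1, 2, 1, 3], [1, 3, 0, 1, 2, 1, 3, 0, 1, 2], [4, 1, 3, 4, 1, 4, 3, 1, 3], [4, 1, 4,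 3, 1, 3, 4, 1, 3], [1, 4, 3, 1, 3, 4, 1, 3, 4], [4, 1, 0, 1, 4, 3, 1, 0, 1, 3], [0, 1, 4, 3, 1, 0, 1, 3, 4, 1], [4, 3, 1, 0, 1, 3, 4, 1, 0, 1], [4, 1, 2, 1, 4, 0, 1, 0, 2, 1], [1, 2, 1, 4, 0, 1, 0, 2, 1, 4], [2, 1, 4, 0, 1, 0, 2, 1, 4, 1], [4, 0, 1, 0, 2, 1, 4, 1, 2, 1]]
  sub := fun x => Nat.blt x 4
  par := pget 5 31 par3
  gix := pget 3 7 gix3
  dp := pget 3 7 dp3
  fa := pget 5 31 fa3
  fl := pget 7 127 fl3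
  fb := pget 5 31 fb3
  fk := pget 6 63 fk3
  po := pget 9 511 po3
  pc := pget 4 15 pc3
  pa := pget 8 255 pa3
  can := pget 5 31 can3
  t := cns (pget 5 31 tb3_0) (cns (pget 5 31 tb3_1) (cns (pget 5 31 tb3_2) (cns (pget 5 31 tb3_3) (cns (pget 5 31 tb3_4) (fun _ => 0)))))
  fid := cns (pget 8 255 fi3_0) (cns (pget 8 255 fi3_1) (cns (pget 8 255 fi3_2) (cns (pget 8 255 fi3_3) (cns (pget 8 255 fi3_4) (fun _ => 0)))))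

/-- The number of facts. -/
abbrev K3 : ℕ := 138

set_option maxRecDepth 100000 in
theorem words3 : wordsOK ([] :: S.L.relW) C3.words = true := by decide +kernel

end Cfsg.Agent.Lib.KnownSimple.MultM.M11H
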