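import Cfsg.Agent.Lib.KnownSimple.MultM.M11H.CertAll

/-!
# The Schur multiplier
-/

set_option autoImplicit false

namespace Cfsg.Agent.Lib.KnownSimple.MultM.M11H

open Cfsg Cfsg.Spor Cfsg.Agent.Lib.Compute Cfsg.Agent.Lib.KnownSimple.PE Cfsg.Agent.Lib.KnownSimple.Leech
open Cfsg.Agent.Lib.KnownSimple Cfsg.Agent.Lib.KnownSimple.AutRigid Cfsg.Agent.Lib.KnownSimple.Pres
open Cfsg.Agent.Lib.KnownSimple.MultC


theorem hMF : MF (stabOf ρ h0) :=
  MF_stab_of_squarefree htr (c := 55) (by rw [card_P]; rfl) (sq_of_chk (by norm_num) (by decide +kernel))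

theorem upperP (Γ : Type) [Group Γ] [Finite Γ] (σ : Γ →* P) (hσ : IsStemExtension σ) :
    ∃ π : Multiplicative (ZMod 1) →* σ.ker, Function.Surjective π :=
  upperV C hP A B hcomm hρ hMF hrr.1 hrr.2 hRLe hokR hloopR (Q := 29) (P := 3) (Qr := 24) (by decide +kernel) (by decide +kernel)
    hTree hE hF (qs := 0) (m := 1) (by decide +kernel) hcert Γ σ hσ

theorem multP : HasCyclicSchurMultiplier P 1 := hasCyclic_one_of upperP

theorem mfP : MF P := MF_of_upper hP A B hcomm upperP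

end Cfsg.Agent.Lib.KnownSimple.MultM.M11H
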